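/- The perfect isometry calculus (tower for S4643, job DD-PI). -/
import Cfsg.Agent.H34.DdSpec
import Cfsg.Agent.H35.BSpan
import Cfsg.Agent.H41.BlockOrth
import Cfsg.Agent.H29.Ito
import Cfsg.Agent.H33.IndTools

set_option autoImplicit false
set_option linter.unusedSectionVars false

namespace H38.DdPI

open Cfsg H28 H35 H34.Dd
open scoped ComplexConjugate

variable {p : ℕ} {M : Ideal AlgInt} [M.IsMaximal]

section
variable {G H K : Type*} [Group G] [Group H] [Group K]

theorem cen_inv (y : H) :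
    Subgroup.centralizer ({y⁻¹} : Set H) = Subgroup.centralizer ({y} : Set H) := by
  ext x
  simp only [Subgroup.mem_centralizer_singleton_iff]
  exact (Commute.inv_right_iff (a := x) (b := y))

theorem reg_inv (y : H) : IsPRegular p y⁻¹ ↔ IsPRegular p y := by
  simp only [IsPRegular, orderOf_inv]

/-- The average of a class function divisible by the centralizer orders is a local integer. -/
theorem avg_mem [Fintype H] {f : H → ℂ} (hf : IsClassFunction H f)
    (h : ∀ y, f y / Nat.card (Subgroup.centralizer ({y} : Set H)) ∈ S M) :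
    (Nat.card H : ℂ)⁻¹ * ∑ y, f y ∈ S M := by
  classical
  have := Fintype.ofFinite (ConjClasses H)
  rw [sum_eq_sum_conjClasses f fun a b hab => by
    obtain ⟨t, rfl⟩ := isConj_iff.1 hab
    exact (hf a t).symm, Finset.mul_sum]
  refine sum_mem fun C _ => ?_
  have h1 := h (Quotient.out C)
  have h2 := H33.natCard_ne_zero (Subgroup.centralizer ({Quotient.out C} : Set H))
  have h3 : ((Subgroup.centralizer ({Quotient.out C} : Set H)).index : ℂ) ≠ 0 :=
    Nat.cast_ne_zero.2 Subgroup.index_ne_zero_of_finite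
  rw [← (Subgroup.centralizer ({Quotient.out C} : Set H)).card_mul_index, nsmul_eq_mul,
    Nat.cast_mul]
  convert h1 using 1
  field_simp

/-- Convolution of perfect functions. -/
theorem perfect_conv [Fintype H] {μ : G → H → ℂ} {ν : H → K → ℂ} (hμ : IsPerfectFun p M μ)
    (hν : IsPerfectFun p M ν) (h1 : ∀ x, IsClassFunction H (μ x))
    (h2 : ∀ z, IsClassFunction H fun y => ν y z) :
    IsPerfectFun p M fun x z => (Nat.card H : ℂ)⁻¹ * ∑ y, μ x y⁻¹ * ν y z := by
  intro x z
  have hc : ∀ a : ℂ, IsClassFunction H fun y => μ x y⁻¹ * ν y z / a := fun a y t => by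
    have e1 := h1 x y⁻¹ t
    have e2 := h2 z y t
    dsimp only at e2 ⊢
    rw [show (t * y * t⁻¹)⁻¹ = t * y⁻¹ * t⁻¹ by group, e1, e2]
  refine ⟨?_, ?_, ?_⟩
  · rw [mul_div_assoc, Finset.sum_div]
    refine avg_mem (hc _) fun y => ?_
    have := (S M).mul_mem (hμ x y⁻¹).1 (hν y z).1
    convert this using 1
    ring
  · rw [mul_div_assoc, Finset.sum_div]
    refine avg_mem (hc _) fun y => ?_
    have := (S M).mul_mem (hμ x y⁻¹).2.1 (hν y z).2.1
    rw [cen_inv] at this
    convert this using 1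
    ring
  · refine or_iff_not_imp_left.2 fun hn => ?_
    dsimp only
    rw [Finset.sum_eq_zero, mul_zero]
    intro y _
    rcases (hμ x y⁻¹).2.2 with h3 | h3
    · rcases (hν y z).2.2 with h4 | h4
      · exact absurd ((h3.trans (reg_inv y)).trans h4) hn
      · rw [h4, mul_zero]
    · rw [h3, zero_mul]

theorem orth [Fintype H] (s : Finset (IrrCharacter H)) (u : IrrCharacter H → ℂ)
    {ψ : IrrCharacter H} (hψ : ψ ∈ s) :
    (Nat.card H : ℂ)⁻¹ * ∑ y, (∑ η ∈ s, u η * η.1 y⁻¹) * ψ.1 y = u ψ := by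
  classical
  have h1 : ∀ η : IrrCharacter H, (Nat.card H : ℂ)⁻¹ * ∑ y, u η * η.1 y⁻¹ * ψ.1 y =
      u η * if ψ = η then 1 else 0 := fun η => by
    rw [← classInner_irr, classInner, mul_left_comm, Finset.mul_sum Finset.univ _ (u η)]
    congr 1
    refine Finset.sum_congr rfl fun y _ => ?_
    rw [η.2.isCharacter.apply_inv]
    ring
  simp only [Finset.sum_mul]
  rw [Finset.sum_comm, Finset.mul_sum, Finset.sum_congr rfl fun η _ => h1 η]
  simp [hψ]

theorem ker_eq [Fintype H] (c : Set (IrrCharacter H)) (I : IrrCharacter H → IrrCharacter G)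
    (ε : IrrCharacter H → ℤ) (x : G) (y : H) :
    signedBijectionKernel c I ε x y = ∑ η ∈ bF c, (ε η : ℂ) * (I η).1 x * η.1 y :=
  finsum_mem_eq_bF _ _

theorem ker_class_left [Finite H] (c : Set (IrrCharacter H)) (I : IrrCharacter H → IrrCharacter G)
    (ε : IrrCharacter H → ℤ) (y : H) :
    IsClassFunction G fun x => signedBijectionKernel c I ε x y := fun x t => by
  simp only [signedBijectionKernel, fun η : IrrCharacter H => (I η).2.isClassFunction x t]

theorem ker_class_right (c : Set (IrrCharacter H)) (I : IrrCharacter H → IrrCharacter G)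
    (ε : IrrCharacter H → ℤ) (x : G) :
    IsClassFunction H (signedBijectionKernel c I ε x) := fun y t => by
  simp only [signedBijectionKernel, fun η : IrrCharacter H => η.2.isClassFunction y t]

theorem conv_ker [Fintype H] [Fintype K] {a : Set (IrrCharacter K)} {c : Set (IrrCharacter H)}
    (I : IrrCharacter H → IrrCharacter G) (ε : IrrCharacter H → ℤ)
    {J : IrrCharacter K → IrrCharacter H} (δ : IrrCharacter K → ℤ) (hJ : Set.MapsTo J a c)
    (x : G) (z : K) :
    (Nat.card H : ℂ)⁻¹ * ∑ y, signedBijectionKernel c I ε x y⁻¹ * signedBijectionKernel a J δ y z =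
      signedBijectionKernel a (I ∘ J) (fun κ => δ κ * ε (J κ)) x z := by
  simp only [ker_eq]
  simp only [Finset.mul_sum (bF a)]
  rw [Finset.sum_comm, Finset.mul_sum]
  refine Finset.sum_congr rfl fun κ hκ => ?_
  have := orth (bF c) (fun η => (ε η : ℂ) * (I η).1 x) (mem_bF.2 (hJ (mem_bF.1 hκ)))
  rw [Finset.sum_congr rfl (g := fun y => (δ κ : ℂ) * κ.1 z *
    ((∑ η ∈ bF c, (ε η : ℂ) * (I η).1 x * η.1 y⁻¹) * (J κ).1 y)) fun y _ => by ring,
    ← Finset.mul_sum, mul_left_comm, this]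
  simp only [Function.comp, Int.cast_mul]
  ring

theorem pi_comp [Finite H] [Finite K] {a : Set (IrrCharacter K)} {c : Set (IrrCharacter H)}
    {b : Set (IrrCharacter G)} {I : IrrCharacter H → IrrCharacter G} {ε : IrrCharacter H → ℤ}
    {J : IrrCharacter K → IrrCharacter H} {δ : IrrCharacter K → ℤ}
    (hJ : IsPerfectIsometry p M a c J δ) (hI : IsPerfectIsometry p M c b I ε) :
    IsPerfectIsometry p M a b (I ∘ J) fun κ => δ κ * ε (J κ) := by
  cases nonempty_fintype H
  cases nonempty_fintype K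
  refine ⟨hI.1.comp hJ.1, fun κ hκ => ?_, ?_⟩
  · rcases hJ.2.1 κ hκ with h1 | h1 <;> rcases hI.2.1 _ (hJ.1.mapsTo hκ) with h2 | h2 <;>
      simp [h1, h2]
  · have := perfect_conv hI.2.2 hJ.2.2 (ker_class_right _ _ _) (ker_class_left _ _ _)
    simpa only [conv_ker I ε δ hJ.1.mapsTo] using this

theorem pi_symm [Finite G] [Finite H] {c : Set (IrrCharacter H)} {b : Set (IrrCharacter G)}
    {I : IrrCharacter H → IrrCharacter G} {ε : IrrCharacter H → ℤ}
    (hI : IsPerfectIsometry p M c b I ε) :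
    ∃ J δ, IsPerfectIsometry p M b c J δ ∧
      ∀ y x, signedBijectionKernel b J δ y x = signedBijectionKernel c I ε x y := by
  cases nonempty_fintype G
  cases nonempty_fintype H
  have h1 := hI.1.invOn_invFunOn
  have h2 := h1.symm.bijOn (hI.1.surjOn.mapsTo_invFunOn) hI.1.mapsTo
  have h3 : ∀ y x, signedBijectionKernel b (Function.invFunOn I c)
      (fun χ => ε (Function.invFunOn I c χ)) y x = signedBijectionKernel c I ε x y := fun y x => by
    rw [ker_eq, ker_eq]
    refine (Finset.sum_nbij I (fun η hη => mem_bF.2 (hI.1.mapsTo (mem_bF.1 hη)))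
      (by rw [coe_bF]; exact hI.1.injOn) (by rw [coe_bF, coe_bF]; exact hI.1.surjOn)
      fun η hη => ?_).symm
    rw [h1.1 (mem_bF.1 hη)]
    ring
  refine ⟨_, _, ⟨h2, fun χ hχ => hI.2.1 _ (h2.mapsTo hχ), fun y x => ?_⟩, h3⟩
  rw [h3]
  obtain ⟨e1, e2, e3⟩ := hI.2.2 x y
  exact ⟨e2, e1, e3.imp Iff.symm id⟩

open Classical in
theorem rank_eq [Fintype G] [Fintype H] (hM : IsPModular p M) {c : Set (IrrCharacter H)}
    {b : Set (IrrCharacter G)} (hb : IsPBlock M b) {I : IrrCharacter H → IrrCharacter G}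
    {ε : IrrCharacter H → ℤ} (hI : IsPerfectIsometry p M c b I ε) :
    (blockRank p b : ℂ) = (Nat.card G : ℂ)⁻¹ * (Nat.card H : ℂ)⁻¹ * ∑ x, ∑ y,
      (if IsPRegular p x then signedBijectionKernel c I ε x y⁻¹ else 0) *
        signedBijectionKernel c I ε x⁻¹ y := by
  have h1 : ∀ x : G, (Nat.card H : ℂ)⁻¹ * ∑ y,
      (if IsPRegular p x then signedBijectionKernel c I ε x y⁻¹ else 0) *
        signedBijectionKernel c I ε x⁻¹ y =
      ∑ η ∈ bF c, pRegularPart p (I η).1 x * conj ((I η).1 x) := fun x => by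
    unfold pRegularPart
    split_ifs with hx
    · conv_lhs => enter [2, 2, y, 2]; rw [ker_eq]
      simp only [Finset.mul_sum (bF c)]
      rw [Finset.sum_comm, Finset.mul_sum]
      refine Finset.sum_congr rfl fun η hη => ?_
      have := orth (bF c) (fun η => (ε η : ℂ) * (I η).1 x) hη
      rw [Finset.sum_congr rfl (g := fun y => (ε η : ℂ) * (I η).1 x⁻¹ *
        ((∑ η ∈ bF c, (ε η : ℂ) * (I η).1 x * η.1 y⁻¹) * η.1 y)) fun y _ => by rw [ker_eq]; ring,
        ← Finset.mul_sum, mul_left_comm, this, (I η).2.isCharacter.apply_inv]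
      rcases hI.2.1 η (mem_bF.1 hη) with h | h <;> rw [h] <;> push_cast <;> ring
    · simp
  rw [mul_assoc, Finset.mul_sum, Finset.sum_congr rfl fun x _ => h1 x, Finset.sum_comm,
    Finset.mul_sum, blockRank_eq_sum hM hb]
  exact (Finset.sum_nbij I (fun η hη => mem_bF.2 (hI.1.mapsTo (mem_bF.1 hη)))
    (by rw [coe_bF]; exact hI.1.injOn) (by rw [coe_bF, coe_bF]; exact hI.1.surjOn)
    fun η hη => rfl).symm

theorem pi_rank [Finite G] [Finite H] (hM : IsPModular p M) {c : Set (IrrCharacter H)}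
    {b : Set (IrrCharacter G)} (hc : IsPBlock M c) (hb : IsPBlock M b)
    {I : IrrCharacter H → IrrCharacter G} {ε : IrrCharacter H → ℤ}
    (hI : IsPerfectIsometry p M c b I ε) : blockRank p c = blockRank p b := by
  classical
  cases nonempty_fintype G
  cases nonempty_fintype H
  obtain ⟨J, δ, hJ, h1⟩ := pi_symm hI
  refine Nat.cast_injective (R := ℂ) ?_
  rw [rank_eq hM hb hI, rank_eq hM hc hJ, Finset.sum_comm, mul_comm (Nat.card H : ℂ)⁻¹,
    ← Equiv.sum_comp (Equiv.inv G)]
  congr 1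
  refine Finset.sum_congr rfl fun x _ => ?_
  rw [← Equiv.sum_comp (Equiv.inv H)]
  refine Finset.sum_congr rfl fun y _ => ?_
  simp only [Equiv.inv_apply, inv_inv, h1]
  rcases (hI.2.2 x y⁻¹).2.2 with h | h
  · simp only [h]
  · simp [h]

/-- The kernel of the identity of a block is perfect. -/
theorem perfect_block [Fintype G] (hM : IsPModular p M) {b : Set (IrrCharacter G)}
    (hb : IsPBlock M b) : IsPerfectFun p M fun x y : G => ∑ χ ∈ bF b, χ.1 x * χ.1 y := by
  classical
  have h1 : ∀ g h : G, (∑ χ ∈ bF b, χ.1 g * χ.1 h) /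
      Nat.card (Subgroup.centralizer ({h} : Set G)) ∈ S M := fun g h => by
    have h1 := H41.sum_blockCoeff_conj b g h⁻¹
    rw [inv_inv, finsum_mem_eq_bF, H29.sum_eq_card_smul_sum_quotient
      (Subgroup.centralizer ({h} : Set G)) _ fun w a ha => by
        rw [show w * a * h⁻¹ * (w * a)⁻¹ = w * (a * h * a⁻¹)⁻¹ * w⁻¹ by group,
          Subgroup.mem_centralizer_singleton_iff.1 ha, mul_inv_cancel_right]] at h1
    rw [← h1, nsmul_eq_mul, mul_div_cancel_left₀ _ (H33.natCard_ne_zero _)]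
    exact sum_mem fun q _ => osima hM hb _
  have h2 : ∀ x y : G, IsPRegular p x → ¬ IsPRegular p y → ∑ χ ∈ bF b, χ.1 x * χ.1 y = 0 :=
    fun x y hx hy => by
      have := weak_orth hM hb hx (y := y⁻¹) (by rw [orderOf_inv]; exact not_not.1 hy)
      rw [← this]
      refine Finset.sum_congr rfl fun χ _ => ?_
      rw [← χ.2.isCharacter.apply_inv, inv_inv]
  have h3 : ∀ x y : G, ∑ χ ∈ bF b, χ.1 x * χ.1 y = ∑ χ ∈ bF b, χ.1 y * χ.1 x := fun x y =>
    Finset.sum_congr rfl fun _ _ => mul_comm _ _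
  refine fun x y => ⟨?_, h1 x y, ?_⟩
  · dsimp only
    rw [h3]
    exact h1 y x
  · by_cases hx : IsPRegular p x <;> by_cases hy : IsPRegular p y
    · exact Or.inl (iff_of_true hx hy)
    · exact Or.inr (h2 x y hx hy)
    · exact Or.inr ((h3 x y).trans (h2 y x hy hx))
    · exact Or.inl (iff_of_false hx hy)

open Classical in
/-- The kernel of induction is perfect. -/
theorem perfect_ind [Finite G] (T : Subgroup G) : IsPerfectFun p M fun (x : G) (s : T) =>
    if IsConj x (s⁻¹ : T) then (Nat.card (Subgroup.centralizer ({x} : Set G)) : ℂ) else 0 := by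
  intro x s
  dsimp only
  split_ifs with h
  · refine ⟨?_, ?_, Or.inl ?_⟩
    · rw [div_self (H33.natCard_ne_zero _)]
      exact (S M).one_mem
    · have h1 : Nat.card (Subgroup.centralizer ({s} : Set T)) ∣
          Nat.card (Subgroup.centralizer ({x} : Set G)) := by
        rw [card_centralizer_eq_of_isConj h, Subgroup.coe_inv, cen_inv,
          ← Subgroup.card_map_of_injective T.subtype_injective]
        refine Subgroup.card_dvd_of_le ?_
        rintro _ ⟨t, ht, rfl⟩
        exact Subgroup.mem_centralizer_singleton_iff.2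
          (congrArg Subtype.val (Subgroup.mem_centralizer_singleton_iff.1 ht))
      obtain ⟨k, hk⟩ := h1
      rw [hk, Nat.cast_mul, mul_div_cancel_left₀ _ (H33.natCard_ne_zero _)]
      exact natCast_mem (S M) k
    · obtain ⟨t, ht⟩ := isConj_iff.1 h
      have h2 : orderOf x = orderOf s := by
        rw [← orderOf_inv s, ← Subgroup.orderOf_coe, ← ht]
        exact ((MulAut.conj t).orderOf_eq x).symm
      simp only [IsPRegular, h2]
  · simp only [zero_div]
    exact ⟨(S M).zero_mem, (S M).zero_mem, Or.inr trivial⟩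

theorem pi_ind [Fintype G] (hM : IsPModular p M) {T : Subgroup G} {c : Set (IrrCharacter T)}
    {b : Set (IrrCharacter G)} (h : IndBij p M T c b) :
    ∃ I ε, IsPerfectIsometry p M c b I ε := by
  classical
  cases nonempty_fintype T
  let I : IrrCharacter T → IrrCharacter G := fun ψ =>
    if hψ : ψ ∈ c then ⟨_, h.irr ψ hψ⟩ else default
  have hI : ∀ ψ ∈ c, (I ψ).1 = indFun T ψ.1 := fun ψ hψ => by simp only [I, dif_pos hψ]
  refine ⟨I, fun _ => 1, ⟨fun ψ hψ => (h.mem_iff _).2 ⟨ψ, hψ, hI ψ hψ⟩, fun ψ hψ ψ' hψ' e =>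
    h.inj ψ hψ ψ' hψ' (by rw [← hI ψ hψ, e, hI ψ' hψ']), fun χ hχ => ?_⟩, fun _ _ => Or.inl rfl, ?_⟩
  · obtain ⟨ψ, h1, h2⟩ := (h.mem_iff χ).1 hχ
    exact ⟨ψ, h1, Subtype.ext ((hI ψ h1).trans h2.symm)⟩
  have := perfect_conv (perfect_ind T) (perfect_block hM h.ind.1) (fun x s t => by
    have : IsConj x ((t * s * t⁻¹)⁻¹ : T) ↔ IsConj x (s⁻¹ : T) := by
      have e : IsConj ((s⁻¹ : T) : G) ((t * s * t⁻¹)⁻¹ : T) :=
        isConj_iff.2 ⟨t, by simp [mul_assoc]⟩
      exact ⟨fun h => h.trans e.symm, fun h => h.trans e⟩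
    beta_reduce
    rw [this]) fun z s t => Finset.sum_congr rfl fun ψ _ => by rw [ψ.2.isClassFunction]
  convert this using 3 with x t
  rw [ker_eq, Finset.sum_congr rfl fun ψ hψ => by
    rw [hI ψ (mem_bF.1 hψ), H33.indFun_eq_card_centralizer]]
  simp only [Finset.mul_sum, Finset.sum_mul, inv_inv]
  rw [Finset.sum_comm]
  refine Finset.sum_congr rfl fun s _ => Finset.sum_congr rfl fun ψ _ => ?_
  split_ifs <;> simp [mul_assoc]

theorem pi_iso [Finite G] [Finite H] (hM : IsPModular p M) (e : H ≃* G)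
    {c : Set (IrrCharacter H)} {b : Set (IrrCharacter G)} (hb : IsPBlock M b)
    (hc : ∀ ψ : IrrCharacter H, ψ ∈ c ↔ ∃ χ ∈ b, ∀ h, ψ.1 h = χ.1 (e h)) :
    ∃ I ε, IsPerfectIsometry p M c b I ε := by
  classical
  cases nonempty_fintype G
  cases nonempty_fintype H
  let J : IrrCharacter G → IrrCharacter H := fun χ =>
    ⟨fun h => χ.1 (e h), χ.2.comp_surjective e.toMonoidHom e.surjective⟩
  have hJ : Set.BijOn J b c := by
    refine ⟨fun χ hχ => (hc _).2 ⟨χ, hχ, fun _ => rfl⟩, fun χ _ χ' _ h => ?_, fun ψ hψ => ?_⟩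
    · refine Subtype.ext (funext fun x => ?_)
      obtain ⟨y, rfl⟩ := e.surjective x
      exact congrFun (congrArg Subtype.val h) y
    · obtain ⟨χ, h1, h2⟩ := (hc ψ).1 hψ
      exact ⟨χ, h1, Subtype.ext (funext fun h => (h2 h).symm)⟩
  have h1 : IsPerfectIsometry p M b c J fun _ => 1 := by
    refine ⟨hJ, fun _ _ => Or.inl rfl, fun y x => ?_⟩
    have h2 := perfect_block hM hb (e y) x
    have h3 : Nat.card (Subgroup.centralizer ({e y} : Set G)) =
        Nat.card (Subgroup.centralizer ({y} : Set H)) := by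
      refine (Nat.card_congr (Equiv.subtypeEquiv e.toEquiv fun t => ?_)).symm
      simp only [Subgroup.mem_centralizer_singleton_iff, MulEquiv.toEquiv_eq_coe,
        EquivLike.coe_coe, ← map_mul, EmbeddingLike.apply_eq_iff_eq]
    simp only [h3, IsPRegular, e.orderOf_eq] at h2
    simpa only [ker_eq, Int.cast_one, one_mul, IsPRegular] using h2
  obtain ⟨I, ε, h2, -⟩ := pi_symm h1
  exact ⟨I, ε, h2⟩

end

universe u

theorem jobPI : JobPI.{u} := fun _ _ _ hM =>
  ⟨fun _ _ _ ⟨_, _, h1⟩ ⟨_, _, h2⟩ => ⟨_, _, pi_comp h1 h2⟩,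
    fun _ _ ⟨_, _, h⟩ => (pi_symm h).imp fun _ h => h.imp fun _ h => h.1,
    fun _ _ hc hb ⟨_, _, h⟩ => pi_rank hM hc hb h, fun _ _ _ h => pi_ind hM h,
    fun e _ _ hb hc => pi_iso hM e hb hc⟩

end H38.DdPI
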