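import Cfsg.Agent.H38.CoverS

/-!
# The Harris–Knörr correspondence
-/

set_option autoImplicit false

open scoped MonoidAlgebra

namespace H38

open Cfsg H28 H35 H39
open H36 hiding pull coeff_pull
open H34 (eB lam omega redA fC IntC intC_fC)

section idem
variable {G : Type*} [Group G] [Finite G] {F : Type*} [Field F] {N Q : Subgroup G}
  {E d c : F[G]} {p : ℕ} [Fact p.Prime] [CharP F p]

theorem hk_br_blk (hd : Blk N d) (hQ : IsDef p N d Q) :
    Blk (Nor Q ⊓ N) (br Q d) ∧ IsDef p (Nor Q ⊓ N) (br Q d) Q := by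
  refine ⟨?_, hQ.br (le_inf (le_nor Q) hQ.le) (inf_comm (Nor Q) N).le⟩
  have h1 := hd.br_of_isDef le_rfl (le_nor N) hQ
  refine (isPrim_inf_centralizer_iff (P := Q) hQ.isPGroup le_rfl (le_inf (le_nor Q) hQ.le)
    inf_le_left).1 ?_
  rw [inf_comm (Nor Q) N, inf_assoc, inf_eq_right.2 (cen_le_nor Q)]
  exact h1

theorem hk_mul_ne_zero (hE : Inv ⊤ E) (hd : Blk N d) (hQ : IsPGroup p Q) (hQN : Q ≤ N)
    (hc : Inv (Nor Q) c) (h1 : br Q E * c = c) (h2 : c * br Q d ≠ 0) : E * d ≠ 0 := by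
  intro h0
  have h3 : br Q E * br Q d = 0 := by
    rw [← br_mul hQ (hE.mono le_top) (hd.inv.mono hQN), h0, map_zero]
  have h4 : Commute c (br Q d) := hc.commute ((supp_br Q d).mono (cen_le_nor Q))
  apply h2
  rw [← h1, mul_assoc, h4.eq, ← mul_assoc, h3, zero_mul]

theorem hk_exists [N.Normal] (hE : Blk ⊤ E) (hd : Blk N d) (hQ : IsDef p N d Q)
    (h : E * d ≠ 0) : ∃ c, Blk (Nor Q) c ∧ c * br Q d ≠ 0 ∧ br Q E * c = c := by
  have hc : Commute E d := blk_commute le_top hE.inv hd.supp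
  have h1 : br Q (E * d) ≠ 0 := by
    refine br_ne_zero_of_mul_ne_zero le_top (nor_of_normal N ⊤)
      (mul_mem (blk_mem_Fx le_top hE) (Fx_mono le_rfl le_top hd.mem)) ?_ hd ?_ hQ.isPGroup hQ.le
      hQ.br_ne
    · rw [mul_assoc, ← mul_assoc d, ← hc.eq, mul_assoc, hd.idem, ← mul_assoc, hE.idem]
    · rwa [mul_assoc, hd.idem]
  rw [br_mul hQ.isPGroup (hE.inv.mono le_top) (hd.inv.mono hQ.le)] at h1
  obtain ⟨c, hc, h2⟩ := exists_covering_blk h1 (Nor Q)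
  have hm : br Q E ∈ Fx F (Nor Q) (Nor Q) :=
    ⟨(hE.inv.mono le_top).br le_rfl, (supp_br Q E).mono (cen_le_nor Q)⟩
  have h3 : Commute c (br Q E) := Fx_comm le_rfl hc.mem hm
  refine ⟨c, hc, fun h0 => h2 ?_, hc.mul_eq_of_ne_zero hm (hE.br_idem hQ.isPGroup le_top)
    fun h0 => h2 ?_⟩
  · rw [← mul_assoc, h3.eq, mul_assoc, h0, mul_zero]
  · rw [← mul_assoc, h3.eq, h0, zero_mul]

/-- A block `c` of `N_G(Q)` whose defect group `P` meets `N` in `Q` has the same Brauer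
correspondent as the block of `G` that it induces. -/
theorem hk_isDef [N.Normal] (hE : Blk ⊤ E) (hQ : IsPGroup p Q) (hc : Blk (Nor Q) c)
    (h1 : br Q E * c = c) {P : Subgroup G} (hP : IsDef p (Nor Q) c P) (hPN : P ⊓ N = Q) :
    IsDef p ⊤ E P ∧ br P E = br P c := by
  have hQP : Q ≤ P := hPN ▸ inf_le_left
  have hN : Nor P ≤ Nor Q := fun x hx =>
    hPN ▸ mem_nor_inf hx (nor_of_normal N ⊤ (Subgroup.mem_top x))
  obtain ⟨h2, h3⟩ := hc.br_normalizer hN hP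
  refine hE.isDef_of_br_mul le_rfl (le_nor _) le_top ?_ (by rwa [top_inf_eq]) ?_
  · rw [top_inf_eq, top_inf_eq]
    exact (isPrim_iff_of_centralizer_le hP.isPGroup le_rfl (le_nor P) le_rfl (cen_le_nor P)
      inf_le_right).2 h2
  · rw [← br_br_of_le hQP E, ← br_mul hP.isPGroup ((hE.inv.mono le_top).br hP.le)
      (hc.inv.mono hP.le), h1]

theorem hk_exists_isDef [N.Normal] (hd : Blk N d) (hQ : IsDef p N d Q) (hc : Blk (Nor Q) c)
    (h : c * br Q d ≠ 0) : ∃ P, IsDef p (Nor Q) c P ∧ P ⊓ N = Q := by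
  obtain ⟨h1, h2⟩ := hk_br_blk hd hQ
  obtain ⟨P, hP, h3⟩ := knorr inf_le_left
    (fun x hx => mem_nor_inf (le_nor _ hx) (nor_of_normal N ⊤ (Subgroup.mem_top x))) hc h1 h h2
  refine ⟨P, hP, ?_⟩
  rw [← h3, ← inf_assoc, inf_eq_left.2 hP.le]

theorem hk_unique [N.Normal] (hE : Blk ⊤ E) (hd : Blk N d) (hQ : IsDef p N d Q)
    (hc : Blk (Nor Q) c) {c' : F[G]} (hc' : Blk (Nor Q) c') (h : c * br Q d ≠ 0)
    (h' : c' * br Q d ≠ 0) (h1 : br Q E * c = c) (h1' : br Q E * c' = c') : c = c' := by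
  obtain ⟨P, hP, h2⟩ := hk_exists_isDef hd hQ hc h
  obtain ⟨P', hP', h2'⟩ := hk_exists_isDef hd hQ hc' h'
  obtain ⟨h3, h4⟩ := hk_isDef hE hQ.isPGroup hc h1 hP h2
  obtain ⟨h3', h4'⟩ := hk_isDef hE hQ.isPGroup hc' h1' hP' h2'
  obtain ⟨g, -, hg⟩ := h3.exists_conj h3'
  have hg' : cS g P = P' := hg
  have hgQ : g ∈ Nor Q := by
    rw [← cS_eq_iff]
    conv_lhs => rw [← h2]
    rw [cS_inf, hg', cS_eq_of_mem_nor (nor_of_normal N ⊤ (Subgroup.mem_top g)), h2']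
  have h5 : br P' c = br P' c' := by
    rw [← h4', ← hc.inv.cj_eq hgQ, ← hE.inv.cj_eq (Subgroup.mem_top g), ← hg', ← cj_br',
      ← cj_br', h4]
  exact hc.eq_of_br_eq le_rfl hc' hP'.isPGroup hP'.le (h5 ▸ hP'.br_ne) h5

end idem

section blk
variable {G : Type*} [Group G] [Finite G] {M : Ideal AlgInt} [M.IsMaximal] {p : ℕ}
  {N Q : Subgroup G}

theorem hk_eS_eq (hM : IsPModular p M) {d : Set (IrrCharacter N)} (hQN : Q ≤ N)
    (hdQ : IsDefectGroup p M d (Q.subgroupOf N)) {e : Set (IrrCharacter ↥(Nor Q ⊓ N))}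
    (hed : IsInducedBlockIn M N (Nor Q ⊓ N) e d) : eS M _ e = br Q (eS M N d) := by
  have := Fact.mk hM.1
  have := H35.charP_F hM
  have hQ := (isDefectGroup_subgroupOf_iff hM hed.2.1 hQN).1 hdQ
  have h1 := (isInducedBlockIn_iff_br hM inf_le_right hQ.isPGroup (le_inf (le_nor Q) hQN)
    (le_inf (inf_le_right.trans (cen_le_nor Q)) inf_le_left) inf_le_left hed.1 hed.2.1).1 hed
  exact ((hk_br_blk (blk_eS hed.2.1) hQ).1.eq_of_mul_eq (blk_eS hed.1) h1).symm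

end blk

end H38
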