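import Cfsg.Agent.H31.O7A

/-! O7 (blueprints/O7.md), job SH: systems containing `H₃` have rank at most four. -/

set_option autoImplicit false

namespace H38.SH

open H56 QuadraticMap Module H31.O7

universe u

attribute [local instance high] List.decidableBAll List.decidableBEx

/-- Golden integers `m + n t`. -/
abbrev Z : Type := ℤ × ℤ

def zm (x y : Z) : Z := (x.1 * y.1 + x.2 * y.2, x.1 * y.2 + x.2 * y.1 + x.2 * y.2)

def zt : Z := (0, 1)

def quo (x y : Z) : Z :=
  let D := y.1 * y.1 + y.1 * y.2 - y.2 * y.2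
  let p := zm x (y.1 + y.2, -y.2)
  ((2 * p.1 * D + D * D) / (2 * D * D), (2 * p.2 * D + D * D) / (2 * D * D))

def gg : ℕ → Z → Z → Z
  | 0, x, _ => x
  | n + 1, x, y => if y = 0 then x else gg n y (x - zm (quo x y) y)

def kill (L : List Z) (z : Z) : Bool :=
  let g := L.foldr (gg 12) 0
  let w := zm (zm (10, 0) z) (zm (10, 0) z)
  zm (quo w g) g == w

def PA (x : Z) : Z :=
  zm (zm x (zm x x - (1, 0))) (zm (zm x x) (zm x x) - zm (3, 0) (zm x x) + (1, 0))

def LA : List Z := [(0, 0), (1, 0), (-1, 0), (0, 1), (1, -1), (0, -1), (-1, 1)]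

def s1 (p : Z × Z) : Z × Z := (-p.1, p.2 + zm zt p.1)

def s2 (p : Z × Z) : Z × Z := (p.1 + zm zt p.2, -p.2)

def LT : List (Z × Z) := [(0, (-1, 0)), (0, (1, 0)), (0, (-1, 1)), (0, (1, -1))]

theorem tab0 : ∀ a ∈ LA, ∀ b ∈ LA, (a = 0 ∧ b = 0) ∨
    (∃ q ∈ [(a, b), s1 (a, b)], ∃ i ∈ [0, 1, 2, 3, 4], (fun p => s1 (s2 p))^[i] q ∈ LT) ∨
    kill [PA (b + zm zt a), PA (a + zm zt b), PA (zm zt a + zm zt b)]
      ((4, 0) - zm zt zt - zm b b - zm a a - zm (zm zt b) a) = true := by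
  decide +kernel

theorem tab1 : ∀ x ∈ LA, x = zt ∨ x = (1, 0) ∨
    kill [PA (x - (1, 0)), PA (x - (1, 1)), zm (PA ((1, -1) - zm x (x - (1, 1))))
        (zm ((1, -1) - zm x (x - (1, 1))) ((1, -1) - zm x (x - (1, 1))) - (4, 0))]
      ((4, 0) - zm (1, -1) (1, -1) - zm (x - (1, 1)) (x - (1, 1)) - zm x x +
        zm (zm (1, -1) (x - (1, 1))) x) = true := by
  decide +kernel

/-- Coordinates with respect to `u₁, u₂, r, r'`. -/
abbrev C4 : Type := Z × Z × Z × Z

def rf (x : Z) : ℕ → C4 → C4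
  | 0, c => (zm zt c.2.1 - c.1, c.2.1, c.2.2.1, c.2.2.2)
  | 1, c => (c.1, zm zt c.1 - c.2.1 + c.2.2.1 + c.2.2.2, c.2.2.1, c.2.2.2)
  | 2, c => (c.1, c.2.1, c.2.1 - c.2.2.1 - zm x c.2.2.2, c.2.2.2)
  | _, c => (c.1, c.2.1, c.2.2.1, c.2.1 - c.2.2.2 - zm x c.2.2.1)

def InF (c : C4) : Prop :=
  c.1 + c.1 - zm zt c.2.1 = 0 ∧ c.2.1 + c.2.1 - zm zt c.1 - c.2.2.1 - c.2.2.2 = (-1, 0)

instance decInF (c : C4) : Decidable (InF c) := inferInstanceAs (Decidable (_ ∧ _))

def vl (c : C4) (y z : Z) : Z := zm c.2.2.1 y + zm c.2.2.2 z - c.2.1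

def e1 : C4 := ((1, 0), 0, 0, 0)

def e2 : C4 := (0, (1, 0), 0, 0)

theorem tab2 : ∀ y ∈ [zt, (1, 0)], ∀ z ∈ [zt, (1, 0)],
    ∃ l ∈ [[1, 3, 2, 0, 1], [1, 2, 3, 0, 1], [1, 0, 1, 2, 0, 1, 3, 2]],
      InF (l.foldr (rf zt) e2) ∧ kill [vl (l.foldr (rf zt) e2) y z - zt] (1, 0) = true ∧
        kill [vl (l.foldr (rf zt) e2) y z - (1, 0)] (1, 0) = true := by
  decide +kernel

theorem tab3 : InF ([3, 1, 0, 1, 2, 0, 1].foldr (rf (1, 0)) e1) ∧
    vl ([3, 1, 0, 1, 2, 0, 1].foldr (rf (1, 0)) e1) (2, 0) (1, 0) = zt := by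
  decide +kernel

variable {K : Type u} [Field K] {t : K}

def ev (t : K) (x : Z) : K := x.1 + x.2 * t

theorem ev_add (x y : Z) : ev t (x + y) = ev t x + ev t y := by simp [ev]; ring

theorem ev_sub (x y : Z) : ev t (x - y) = ev t x - ev t y := by simp [ev]; ring

theorem ev_neg (x : Z) : ev t (-x) = -ev t x := by simp [ev]; ring

theorem ev_zero : ev t 0 = 0 := by simp [ev]

theorem ev_mk (a b : ℤ) : ev t (a, b) = a + b * t := rfl

theorem ev_zt : ev t zt = t := by simp [ev, zt]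

theorem ev_zm (ht : t * t = t + 1) (x y : Z) : ev t (zm x y) = ev t x * ev t y := by
  simp only [ev, zm]
  push_cast
  linear_combination (-(x.2 : K) * y.2) * ht

theorem ev_gg (ht : t * t = t + 1) : ∀ (n : ℕ) (x y : Z), ev t x = 0 → ev t y = 0 →
    ev t (gg n x y) = 0
  | 0, _, _, h, _ => h
  | n + 1, x, y, h, h' => by
    rw [gg]
    split_ifs
    · exact h
    · exact ev_gg ht n _ _ h' (by rw [ev_sub, ev_zm ht, h, h', mul_zero, sub_zero])

theorem kill_ok (ht : t * t = t + 1) (h10 : (10 : K) ≠ 0) {L : List Z} {z : Z}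
    (hk : kill L z = true) (hL : ∀ x ∈ L, ev t x = 0) : ev t z = 0 := by
  have h1 : ev t (L.foldr (gg 12) 0) = 0 := by
    clear hk
    induction L with
    | nil => exact ev_zero
    | cons a L ih =>
      exact ev_gg ht _ _ _ (hL a List.mem_cons_self) (ih fun x hx => hL x (List.mem_cons_of_mem _ hx))
  have h2 := congrArg (ev t) (eq_of_beq hk)
  rw [ev_zm ht, h1, mul_zero, ev_zm ht, ev_zm ht, eq_comm, mul_self_eq_zero, mul_eq_zero] at h2
  exact h2.resolve_left (by simpa [ev] using h10)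

def PK (x : K) : K := x * (x * x - 1) * (x * x * (x * x) - 3 * (x * x) + 1)

theorem ev_PA (ht : t * t = t + 1) (x : Z) : ev t (PA x) = PK (ev t x) := by
  simp only [PA, PK, ev_zm ht, ev_add, ev_sub, ev_mk]
  push_cast
  ring

theorem exists_LA (ht : t * t = t + 1) {x : K} (h : PK x = 0) : ∃ z ∈ LA, ev t z = x := by
  have h1 : (x - t) * (x - (1 - t)) = x * x - x - 1 := by linear_combination (-1 : K) * ht
  have h2 : (x + t) * (x - (t - 1)) = x * x + x - 1 := by linear_combination (-1 : K) * ht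
  have h3 : x * ((x - 1) * ((x + 1) * ((x - t) * (x - (1 - t)) * ((x + t) * (x - (t - 1)))))) = 0 := by
    rw [h1, h2, ← h, PK]; ring
  simp only [mul_eq_zero, sub_eq_zero, add_eq_zero_iff_eq_neg] at h3
  simp only [LA, List.mem_cons, List.not_mem_nil, or_false, exists_eq_or_imp, exists_eq_left, ev_mk]
  push_cast
  rcases h3 with h | h | h | (h | h) | h | h <;> rw [h]
  · exact .inl (by ring)
  · exact .inr (.inl (by ring))
  · exact .inr (.inr (.inl (by ring)))
  · exact .inr (.inr (.inr (.inl (by ring))))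
  · exact .inr (.inr (.inr (.inr (.inl (by ring)))))
  · exact .inr (.inr (.inr (.inr (.inr (.inl (by ring))))))
  · exact .inr (.inr (.inr (.inr (.inr (.inr (by ring))))))

variable {V : Type u} [AddCommGroup V] [Module K V]

/-- The setting. -/
structure St (B : V →ₗ[K] V →ₗ[K] K) (Ψ : Set V) (t : K) (u₁ u₂ : V) : Prop where
  two : (2 : K) ≠ 0
  five : (5 : K) ≠ 0
  ht : t * t = t + 1
  sym : ∀ x y, B x y = B y x
  self : ∀ x ∈ Ψ, B x x = 2
  cl : ∀ x ∈ Ψ, ∀ y ∈ Ψ, y - B x y • x ∈ Ψ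
  val : ∀ x ∈ Ψ, ∀ y ∈ Ψ, PK (B x y) = 0 ∨ y = x ∨ y = -x
  dt : ∀ x ∈ Ψ, ∀ y ∈ Ψ, ∀ z ∈ Ψ, Gold (B x y ^ 2) → LinearIndependent K ![x, y, z] →
    4 - B x y * B x y - B y z * B y z - B x z * B x z + B x y * B y z * B x z ≠ 0
  m1 : u₁ ∈ Ψ
  m2 : u₂ ∈ Ψ
  a12 : B u₁ u₂ = -t

/-- The standard roots. -/
def FF (B : V →ₗ[K] V →ₗ[K] K) (Ψ : Set V) (u₁ u₂ : V) : Set V :=
  {r | r ∈ Ψ ∧ B r u₁ = 0 ∧ B r u₂ = -1}

def vz (t : K) (u₁ u₂ r r' : V) (c : C4) : V :=
  ev t c.1 • u₁ + ev t c.2.1 • u₂ + ev t c.2.2.1 • r + ev t c.2.2.2 • r'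

namespace St

variable {B : V →ₗ[K] V →ₗ[K] K} {Ψ : Set V} {u₁ u₂ : V} (h : St B Ψ t u₁ u₂)
include h

theorem ten : (10 : K) ≠ 0 := by
  have := mul_ne_zero h.two h.five
  norm_num at this ⊢
  exact this

theorem a21 : B u₂ u₁ = -t := (h.sym _ _).trans h.a12

theorem neg {v : V} (hv : v ∈ Ψ) : -v ∈ Ψ := by
  have := h.cl v hv v hv
  rwa [h.self v hv, two_smul, ← sub_sub, sub_self, zero_sub] at this

theorem t_ne : t ≠ 0 := fun e => by
  have := h.ht
  rw [e] at this
  simp at this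

theorem c1 {r r' : V} (hr : r ∈ FF B Ψ u₁ u₂) (hr' : r' ∈ FF B Ψ u₁ u₂) (hne : r ≠ r') :
    B r r' = t ∨ B r r' = 1 := by
  obtain ⟨m, a1, a2⟩ := hr
  obtain ⟨m', b1, b2⟩ := hr'
  have ht := h.ht
  have b1' := (h.sym _ _).trans b1
  have b2' := (h.sym _ _).trans b2
  have s11 := h.self _ h.m1
  have s22 := h.self _ h.m2
  have n1 : r' + u₂ ∈ Ψ := by
    have := h.cl _ h.m2 _ m'
    rwa [b2', neg_smul, one_smul, sub_neg_eq_add] at this
  have n2 : r' + u₂ + t • u₁ ∈ Ψ := by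
    have := h.cl _ h.m1 _ n1
    rwa [map_add, b1', h.a12, zero_add, neg_smul, sub_neg_eq_add] at this
  have n3 : r' + u₂ + t • u₁ + t • u₂ ∈ Ψ := by
    have := h.cl _ h.m2 _ n2
    rwa [map_add, map_add, map_smul, b2', s22, h.a21, smul_eq_mul,
      show -1 + 2 + t * -t = -t by linear_combination (-1 : K) * ht, neg_smul,
      sub_neg_eq_add] at this
  set w := r' + u₂ + t • u₁ + t • u₂ with hw
  have w1 : B w u₁ = -1 := by
    simp only [hw, map_add, map_smul, LinearMap.add_apply, LinearMap.smul_apply, smul_eq_mul, b1,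
      h.a21, s11]
    linear_combination (-1 : K) * ht
  have w2 : B r w = B r r' - (1 + t) := by
    simp only [hw, map_add, map_smul, smul_eq_mul, a1, a2]; ring
  have w3 : B r' w = 1 - t := by
    simp only [hw, map_add, map_smul, smul_eq_mul, b1, b2, h.self _ m']; ring
  have key : ∀ y ∈ Ψ, B y u₁ ≠ 0 → PK (B r y) = 0 := fun y hy e =>
    ((h.val r m y hy).resolve_right fun e' => e (by
      rcases e' with rfl | rfl
      exacts [a1, by rw [map_neg, LinearMap.neg_apply, a1, neg_zero]]))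
  have p0 : PK (B r r') = 0 := (h.val r m r' m').resolve_right (by
    rintro (e | e)
    · exact hne e.symm
    · rw [e, map_neg, LinearMap.neg_apply, a2] at b2
      exact h.two (by linear_combination b2))
  have p1 := key _ n1 (by
    rw [map_add, LinearMap.add_apply, b1, h.a21, zero_add]; exact neg_ne_zero.2 h.t_ne)
  have p2 := key _ n3 (by rw [w1]; exact neg_ne_zero.2 one_ne_zero)
  rw [map_add, a2] at p1
  rw [w2] at p2
  have w4 : B (r' - B r r' • r) w = 1 - t - B r r' * (B r r' - (1 + t)) := by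
    rw [map_sub, LinearMap.sub_apply, map_smul, LinearMap.smul_apply, w3, w2, smul_eq_mul]
  have p3 : PK (B (r' - B r r' • r) w) * (B (r' - B r r' • r) w * B (r' - B r r' • r) w - 4) = 0 := by
    have s := h.self _ (h.cl _ m _ m')
    rcases h.val _ (h.cl _ m _ m') w n3 with e | e | e
    · rw [e, zero_mul]
    · rw [e, s]; ring
    · rw [e, map_neg, s]; ring
  rw [w4] at p3
  have li : LinearIndependent K ![r', w, r] := Fintype.linearIndependent_iff.2 fun g hg => by
    simp only [Fin.sum_univ_three, Matrix.cons_val_zero, Matrix.cons_val_one,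
      Matrix.cons_val] at hg
    have q1 := congrArg (fun v => B v u₁) hg
    simp only [map_add, map_smul, LinearMap.add_apply, LinearMap.smul_apply, smul_eq_mul, b1, a1, w1,
      map_zero, LinearMap.zero_apply] at q1
    have g1 : g 1 = 0 := by linear_combination -q1
    rw [g1, zero_smul, add_zero] at hg
    have q2 := congrArg (fun v => B v u₂) hg
    simp only [map_add, map_smul, LinearMap.add_apply, LinearMap.smul_apply, smul_eq_mul, b2, a2,
      map_zero, LinearMap.zero_apply] at q2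
    have g2 : g 2 = -g 0 := by linear_combination -q2
    rw [g2, neg_smul, ← sub_eq_add_neg, ← smul_sub, smul_eq_zero, sub_eq_zero] at hg
    have g0 : g 0 = 0 := hg.resolve_right hne.symm
    intro i
    fin_cases i
    exacts [g0, g1, g2.trans (by rw [g0, neg_zero])]
  have d := h.dt r' m' w n3 r m (by rw [w3, Gold]; linear_combination (t * t - 3 * t + 1) * ht) li
  rw [w3, h.sym w r, w2, h.sym r' r] at d
  obtain ⟨x, hx, e⟩ := exists_LA ht p0
  rw [← e] at p1 p2 p3 d ⊢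
  rcases tab1 x hx with rfl | rfl | k
  · exact .inl ev_zt
  · exact .inr (by simp [ev])
  · refine absurd ?_ d
    have := kill_ok ht h.ten k (by
      simp only [List.mem_cons, List.not_mem_nil, or_false, forall_eq_or_imp, forall_eq, ev_PA ht,
        ev_zm ht, ev_sub, ev_mk]
      push_cast
      refine ⟨?_, ?_, ?_⟩
      · convert p1 using 2; ring
      · convert p2 using 2; ring
      · convert p3 using 3 <;> ring)
    simp only [ev_zm ht, ev_sub, ev_add, ev_mk] at this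
    push_cast at this
    linear_combination this

section

variable {r r' : V} (hr : r ∈ FF B Ψ u₁ u₂) (hr' : r' ∈ FF B Ψ u₁ u₂) {x : Z} (hx : B r r' = ev t x)
include hr hr' hx

theorem rf_mem (i : ℕ) {c : C4} (hc : vz t u₁ u₂ r r' c ∈ Ψ) : vz t u₁ u₂ r r' (rf x i c) ∈ Ψ := by
  obtain ⟨m, a1, a2⟩ := hr
  obtain ⟨m', b1, b2⟩ := hr'
  rcases i with _ | _ | _ | i
  · convert h.cl _ h.m1 _ hc using 1
    simp only [vz, rf, map_add, map_smul, smul_eq_mul, h.self _ h.m1, h.a12, h.sym u₁ r, h.sym u₁ r',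
      a1, b1, ev_sub, ev_zm h.ht, ev_zt]
    module
  · convert h.cl _ h.m2 _ hc using 1
    simp only [vz, rf, map_add, map_smul, smul_eq_mul, h.self _ h.m2, h.a21, h.sym u₂ r, h.sym u₂ r',
      a2, b2, ev_sub, ev_add, ev_zm h.ht, ev_zt]
    module
  · convert h.cl _ m _ hc using 1
    simp only [vz, rf, map_add, map_smul, smul_eq_mul, h.self _ m, hx, a1, a2, ev_sub, ev_zm h.ht]
    module
  · convert h.cl _ m' _ hc using 1
    simp only [vz, rf, map_add, map_smul, smul_eq_mul, h.self _ m', h.sym r' r, hx, b1, b2, ev_sub,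
      ev_zm h.ht]
    module

theorem wd_mem (l : List ℕ) {c : C4} (hc : vz t u₁ u₂ r r' c ∈ Ψ) (hF : InF (l.foldr (rf x) c)) :
    vz t u₁ u₂ r r' (l.foldr (rf x) c) ∈ FF B Ψ u₁ u₂ := by
  refine ⟨?_, ?_, ?_⟩
  · clear hF
    induction l with
    | nil => exact hc
    | cons i l ih => exact h.rf_mem hr hr' hx i ih
  · have := congrArg (ev t) hF.1
    simp only [ev_sub, ev_add, ev_zm h.ht, ev_zt, ev_zero] at this
    simp only [vz, map_add, map_smul, LinearMap.add_apply, LinearMap.smul_apply, smul_eq_mul,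
      h.self _ h.m1, h.a21, hr.2.1, hr'.2.1]
    linear_combination this
  · have := congrArg (ev t) hF.2
    simp only [ev_sub, ev_add, ev_zm h.ht, ev_zt, ev_mk] at this
    push_cast at this
    simp only [vz, map_add, map_smul, LinearMap.add_apply, LinearMap.smul_apply, smul_eq_mul,
      h.self _ h.m2, h.a12, hr.2.2, hr'.2.2]
    linear_combination this

end

theorem vl_eq {r r' s : V} (hs : s ∈ FF B Ψ u₁ u₂) (c : C4) {y z : Z} (hy : B r s = ev t y)
    (hz : B r' s = ev t z) : B (vz t u₁ u₂ r r' c) s = ev t (vl c y z) := by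
  simp only [vz, vl, map_add, map_smul, LinearMap.add_apply, LinearMap.smul_apply, smul_eq_mul,
    h.sym u₁ s, h.sym u₂ s, hs.2.1, hs.2.2, hy, hz, ev_sub, ev_add, ev_zm h.ht]
  ring

theorem c2 : ∃ r r' : V, FF B Ψ u₁ u₂ ⊆ Submodule.span K (Set.range ![u₁, u₂, r, r']) := by
  have sp : ∀ (r r' : V) (i : Fin 4), ![u₁, u₂, r, r'] i ∈
      Submodule.span K (Set.range ![u₁, u₂, r, r']) := fun r r' i => Submodule.subset_span ⟨i, rfl⟩
  by_cases hs : (FF B Ψ u₁ u₂).Subsingleton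
  · rcases hs.eq_empty_or_singleton with e | ⟨r, e⟩
    · exact ⟨0, 0, e ▸ Set.empty_subset _⟩
    · exact ⟨r, r, e ▸ Set.singleton_subset_iff.2 (sp r r 2)⟩
  obtain ⟨r, hr, r₀, hr₀, ne⟩ := Set.not_subsingleton_iff.1 hs
  have o1 : ev t (1, 0) = 1 := by simp [ev]
  obtain ⟨r', hr', hx⟩ : ∃ r' ∈ FF B Ψ u₁ u₂, B r r' = ev t zt := by
    rcases h.c1 hr hr₀ ne with e | e
    · exact ⟨r₀, hr₀, e.trans ev_zt.symm⟩
    · refine ⟨_, h.wd_mem hr hr₀ (e.trans o1.symm) _ (c := e1) (by simpa [vz, e1, ev] using h.m1)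
        tab3.1, ?_⟩
      rw [h.sym, h.vl_eq hr _ (y := (2, 0)) (z := (1, 0)) (by rw [h.self _ hr.1]; simp [ev])
        (by rw [h.sym, e, o1]), tab3.2]
  refine ⟨r, r', fun s hs => ?_⟩
  by_cases e1 : r = s
  · exact e1 ▸ sp r r' 2
  by_cases e1' : r' = s
  · exact e1' ▸ sp r r' 3
  have ex : ∀ a ∈ FF B Ψ u₁ u₂, a ≠ s → ∃ y ∈ [zt, (1, 0)], B a s = ev t y := fun a ha e => by
    rcases h.c1 ha hs e with e | e
    exacts [⟨zt, by simp, e.trans ev_zt.symm⟩, ⟨(1, 0), by simp, e.trans o1.symm⟩]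
  obtain ⟨y, hy, ey⟩ := ex r hr e1
  obtain ⟨z, hz, ez⟩ := ex r' hr' e1'
  obtain ⟨l, -, k1, k2, k3⟩ := tab2 y hy z hz
  have m := h.wd_mem hr hr' hx l (c := e2) (by simpa [vz, e2, ev] using h.m2) k1
  by_cases e : vz t u₁ u₂ r r' (l.foldr (rf zt) e2) = s
  · rw [← e]
    exact add_mem (add_mem (add_mem (Submodule.smul_mem _ _ (sp r r' 0))
      (Submodule.smul_mem _ _ (sp r r' 1))) (Submodule.smul_mem _ _ (sp r r' 2)))
      (Submodule.smul_mem _ _ (sp r r' 3))
  have c := h.c1 m hs e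
  rw [h.vl_eq hs _ ey ez] at c
  refine absurd (o1.symm.trans ?_) one_ne_zero
  rcases c with c | c
  · exact kill_ok h.ht h.ten k2 (by simp [ev_sub, c, ev_zt])
  · exact kill_ok h.ht h.ten k3 (by simp [ev_sub, c, o1])

theorem f0 {U : Submodule K V} (h1 : u₁ ∈ U) (h2 : u₂ ∈ U) (hF : FF B Ψ u₁ u₂ ⊆ U) {v : V}
    (hv : v ∈ Ψ) : v ∈ U ∨ B v u₁ = 0 ∧ B v u₂ = 0 := by
  have ht := h.ht
  have s11 := h.self _ h.m1
  have s22 := h.self _ h.m2
  let Gd : Z × Z → Prop := fun p => ∀ v ∈ Ψ, B v u₁ = ev t p.1 → B v u₂ = ev t p.2 → v ∈ U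
  have g1 : ∀ p, Gd (s1 p) → Gd p := fun p hp v hv a b =>
    (Submodule.sub_mem_iff_left _ (U.smul_mem _ h1)).1 (hp _ (h.cl _ h.m1 _ hv) (by
      simp only [s1, map_sub, map_smul, LinearMap.sub_apply, LinearMap.smul_apply, smul_eq_mul,
        h.sym u₁ v, a, s11, ev_neg]; ring) (by
      simp only [s1, map_sub, map_smul, LinearMap.sub_apply, LinearMap.smul_apply, smul_eq_mul,
        h.sym u₁ v, a, b, h.a12, ev_add, ev_zm ht, ev_zt]; ring))
  have g2 : ∀ p, Gd (s2 p) → Gd p := fun p hp v hv a b =>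
    (Submodule.sub_mem_iff_left _ (U.smul_mem _ h2)).1 (hp _ (h.cl _ h.m2 _ hv) (by
      simp only [s2, map_sub, map_smul, LinearMap.sub_apply, LinearMap.smul_apply, smul_eq_mul,
        h.sym u₂ v, a, b, h.a21, ev_add, ev_zm ht, ev_zt]; ring) (by
      simp only [s2, map_sub, map_smul, LinearMap.sub_apply, LinearMap.smul_apply, smul_eq_mul,
        h.sym u₂ v, b, s22, ev_neg]; ring))
  have g3 : ∀ p, Gd (-p) → Gd p := fun p hp v hv a b =>
    U.neg_mem_iff.1 (hp _ (h.neg hv) (by rw [map_neg, LinearMap.neg_apply, a, Prod.fst_neg, ev_neg])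
      (by rw [map_neg, LinearMap.neg_apply, b, Prod.snd_neg, ev_neg]))
  have t1 : Gd (0, (-1, 0)) := fun v hv a b => hF ⟨hv, a.trans ev_zero, b.trans (by simp [ev])⟩
  have t2 : Gd ((0, -1), (0, 1)) := g1 _ (g2 _ (g3 _ (by convert t1 using 1; decide)))
  have t3 : Gd (0, (-1, 1)) := fun v hv a b => by
    have a' : B v u₁ = 0 := a.trans ev_zero
    have b' : B v u₂ = t - 1 := b.trans (by simp [ev]; ring)
    have := t2 _ (h.cl _ hv _ h.m2) (by
      simp only [map_sub, map_smul, LinearMap.sub_apply, LinearMap.smul_apply, smul_eq_mul,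
        a', h.a21, ev_mk]; push_cast; ring) (by
      simp only [map_sub, map_smul, LinearMap.sub_apply, LinearMap.smul_apply, smul_eq_mul,
        b', s22, ev_mk]; push_cast; linear_combination (-1 : K) * ht)
    rw [Submodule.sub_mem_iff_right _ h2, b'] at this
    exact (U.smul_mem_iff fun e => one_ne_zero (by linear_combination t * e - ht)).1 this
  have gT : ∀ p ∈ LT, Gd p := by
    simp only [LT, List.mem_cons, List.not_mem_nil, or_false, forall_eq_or_imp, forall_eq]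
    exact ⟨t1, g3 _ (by convert t1 using 1; decide), t3, g3 _ (by convert t3 using 1; decide)⟩
  have gi : ∀ (i : ℕ) p, Gd ((fun p => s1 (s2 p))^[i] p) → Gd p := fun i => by
    induction i with
    | zero => exact fun _ hp => hp
    | succ i ih => exact fun p hp => g2 _ (g1 _ (ih _ hp))
  refine (em _).imp_right fun hU => ?_
  have key : ∀ y ∈ Ψ, y ∈ U → PK (B v y) = 0 := fun y hy e =>
    (h.val v hv y hy).resolve_right (by
      rintro (rfl | rfl)
      exacts [hU e, hU (U.neg_mem_iff.1 e)])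
  obtain ⟨a, ha, ea⟩ := exists_LA ht (key _ h.m1 h1)
  obtain ⟨b, hb, eb⟩ := exists_LA ht (key _ h.m2 h2)
  rcases tab0 a ha b hb with ⟨rfl, rfl⟩ | ⟨q, hq, i, -, hT⟩ | k
  · exact ⟨ea.symm.trans ev_zero, eb.symm.trans ev_zero⟩
  · refine absurd (?_ : Gd (a, b)) fun e => hU (e v hv ea.symm eb.symm)
    have := gi i q (gT _ hT)
    simp only [List.mem_cons, List.not_mem_nil, or_false] at hq
    rcases hq with rfl | rfl
    exacts [this, g1 _ this]
  exfalso
  have n1 := h.cl _ h.m1 _ h.m2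
  have n2 := h.cl _ h.m2 _ h.m1
  have n3 := h.cl _ h.m1 _ n2
  have p1 := key _ n1 (sub_mem h2 (U.smul_mem _ h1))
  have p2 := key _ n2 (sub_mem h1 (U.smul_mem _ h2))
  have p3 := key _ n3 (sub_mem (sub_mem h1 (U.smul_mem _ h2)) (U.smul_mem _ h1))
  simp only [map_sub, map_smul, smul_eq_mul, h.a12, h.a21, s11, ← ea, ← eb] at p1 p2 p3
  have li : LinearIndependent K ![u₁, u₂, v] := Fintype.linearIndependent_iff.2 fun g hg => by
    simp only [Fin.sum_univ_three, Matrix.cons_val_zero, Matrix.cons_val_one,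
      Matrix.cons_val] at hg
    have g2 : g 2 = 0 := by
      by_contra e
      refine hU ((U.smul_mem_iff e).1 ?_)
      rw [← neg_eq_of_add_eq_zero_right hg]
      exact neg_mem (add_mem (U.smul_mem _ h1) (U.smul_mem _ h2))
    rw [g2, zero_smul, add_zero] at hg
    have q1 := congrArg (B u₁) hg
    have q2 := congrArg (B u₂) hg
    simp only [map_add, map_smul, smul_eq_mul, s11, s22, h.a12, h.a21, map_zero] at q1 q2
    have g0 : g 0 = 0 := (mul_eq_zero.1 (show 5 * g 0 = 0 by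
      linear_combination (2 + t) * (2 * q1 + t * q2) + (g 0 * t + 3 * g 0) * ht)).resolve_left h.five
    have g1 : g 1 = 0 := (mul_eq_zero.1 (show 2 * g 1 = 0 by
      linear_combination q2 + t * g0)).resolve_left h.two
    intro i
    fin_cases i
    exacts [g0, g1, g2]
  have d := h.dt _ h.m1 _ h.m2 v hv (by rw [h.a12, Gold]; linear_combination (t * t + t - 1) * ht) li
  rw [h.a12, h.sym u₂ v, h.sym u₁ v, ← ea, ← eb] at d
  refine d ?_
  have := kill_ok ht h.ten k (by
    simp only [List.mem_cons, List.not_mem_nil, or_false, forall_eq_or_imp, forall_eq, ev_PA ht,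
      ev_zm ht, ev_add, ev_zt]
    refine ⟨?_, ?_, ?_⟩
    · convert p1 using 2; ring
    · convert p2 using 2; ring
    · convert p3 using 2; linear_combination (-ev t a) * ht)
  simp only [ev_zm ht, ev_sub, ev_mk, ev_zt] at this
  push_cast at this
  linear_combination this

theorem core : ∃ U : Submodule K V, u₁ ∈ U ∧ (U = ⊤ → finrank K V ≤ 4) ∧
    ∀ v ∈ Ψ, v ∈ U ∨ ∀ w ∈ U, B v w = 0 := by
  obtain ⟨r, r', hr⟩ := h.c2
  have h1 : u₁ ∈ Submodule.span K (insert u₁ (insert u₂ (FF B Ψ u₁ u₂))) :=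
    Submodule.subset_span (by simp)
  have h2 : u₂ ∈ Submodule.span K (insert u₁ (insert u₂ (FF B Ψ u₁ u₂))) :=
    Submodule.subset_span (by simp)
  have h3 : FF B Ψ u₁ u₂ ⊆ Submodule.span K (insert u₁ (insert u₂ (FF B Ψ u₁ u₂))) :=
    fun s hs => Submodule.subset_span (.inr (.inr hs))
  refine ⟨_, h1, fun e => ?_, fun v hv => ?_⟩
  · refine (finrank_le_of_span_eq_top (v := ![u₁, u₂, r, r']) (top_le_iff.1 ?_)).trans_eq (by simp)
    rw [← e, Submodule.span_le]
    rintro s (rfl | rfl | hs)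
    exacts [Submodule.subset_span ⟨0, rfl⟩, Submodule.subset_span ⟨1, rfl⟩, hr hs]
  rcases h.f0 h1 h2 h3 hv with e | ⟨a, b⟩
  · exact .inl e
  by_cases e : ∀ s ∈ FF B Ψ u₁ u₂, B v s = 0
  · refine .inr fun w hw => ?_
    refine (Submodule.span_le (p := LinearMap.ker (B v))).2 ?_ hw
    rintro s (rfl | rfl | hs)
    exacts [a, b, e s hs]
  · push Not at e
    obtain ⟨s, hs, e⟩ := e
    have := h3 (show s - B v s • v ∈ FF B Ψ u₁ u₂ from ⟨h.cl _ hv _ hs.1, by
      rw [map_sub, LinearMap.sub_apply, map_smul, LinearMap.smul_apply, a, hs.2.1, smul_zero,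
        sub_zero], by
      rw [map_sub, LinearMap.sub_apply, map_smul, LinearMap.smul_apply, b, hs.2.2, smul_zero,
        sub_zero]⟩)
    exact .inl ((Submodule.smul_mem_iff _ e).1 ((Submodule.sub_mem_iff_right _ (h3 hs)).1 this))

end St

theorem jobSH : JobSH.{u} := by
  intro K _ V _ _ _ Q h5 Ψ N hc hv hd u hu v hv' hg
  have hN := hc.ne
  let B : V →ₗ[K] V →ₗ[K] K := N⁻¹ • Q.polarBilin
  have hB : ∀ x y, B x y = N⁻¹ * polar Q x y := fun _ _ => rfl
  have ec : ∀ x ∈ Ψ, ∀ y ∈ Ψ, cc Q x y = B x y ^ 2 := fun x hx y hy => by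
    rw [cc, hc.norm x hx, hc.norm y hy, hB]; field_simp
  have cl : ∀ x ∈ Ψ, ∀ y ∈ Ψ, y - B x y • x ∈ Ψ := fun x hx y hy => by
    have := hc.cl x hx y hy
    rwa [refl_apply, hc.norm x hx] at this
  have self : ∀ x ∈ Ψ, B x x = 2 := fun x hx => by
    rw [hB, polar_self', hc.norm x hx]; field_simp
  have mk : ∀ t w, w ∈ Ψ → t * t = t + 1 → B u w = -t → St B Ψ t u w := fun t w hw ht e =>
    ⟨hc.two, h5, ht, fun x y => by rw [hB, hB, polar_comm], self, cl, fun x hx y hy => by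
      have := hv x hx y hy
      rw [ec x hx y hy, Gold] at this
      rw [PK]
      rcases this with e | e | e | e
      · exact .inl (by rw [pow_eq_zero_iff two_ne_zero] at e; rw [e]; ring)
      · exact .inl (by rw [← pow_two, e]; ring)
      · exact .inl (by linear_combination B x y * (B x y * B x y - 1) * e)
      · exact .inr e, fun x hx y hy z hz g li e => hd x hx y hy z hz (ec x hx y hy ▸ g) li (by
        rw [dt, ec x hx y hy, ec y hy z hz, ec x hx z hz, tau, hc.norm x hx, hc.norm y hy,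
          hc.norm z hz, ← e, polar_comm Q z x, hB, hB, hB]
        field_simp), hu, hw, e⟩
  rw [ec u hu v hv', Gold] at hg
  obtain ⟨t, w, h⟩ : ∃ t w, St B Ψ t u w := by
    rcases mul_eq_zero.1 (show (B u v * B u v - B u v - 1) * (B u v * B u v + B u v - 1) = 0 by
      linear_combination hg) with e | e
    · refine ⟨B u v, -v, mk _ _ ?_ (by linear_combination e) (map_neg _ _)⟩
      have := cl v hv' v hv'
      rwa [self v hv', two_smul, ← sub_sub, sub_self, zero_sub] at this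
    · exact ⟨-B u v, v, mk _ _ hv' (by linear_combination e) (neg_neg _).symm⟩
  obtain ⟨U, h1, h2, h3⟩ := h.core
  rcases hc.irr U (fun x hx => (h3 x hx).imp_right fun e => mem_perp'.2 fun w hw => by
    have := e w hw
    rw [hB, mul_eq_zero] at this
    exact this.resolve_left (inv_ne_zero hN)) with e | e
  · rw [e, Submodule.mem_bot] at h1
    exact hN (by rw [← hc.norm u hu, h1, map_zero])
  · have := h2 e
    rw [hc.dim] at this
    omega

end H38.SH
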